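import Mathlib
import Cfsg.Agent.Lib.Helper12.OElmE.Defs
import Cfsg.Agent.Lib.Helper13.OElm.EmbM
import Cfsg.Agent.Lib.Helper29.PHyp.NecElt

/-!
# OELM (= S5990), regime [R2E], package [NECELTM]

The involution `1 + S` (from the `f`-part to the `e`-part, identity on the anisotropic plane) of
`Ω⁻_{2k+2}(q)`, `q` even, `k` even: it is of a-type and every nondegenerate subspace of its fixed
space has dimension at most `2`.
-/

set_option autoImplicit false
open scoped MatrixGroups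
open Matrix

namespace Cfsg.Agent.Lib.Helper83.OElmE

open Cfsg.Agent.Lib.Helper23.OHyp Cfsg.Agent.Lib.Helper44.OElp Cfsg.Agent.Lib.Helper64.OParM
open Cfsg.Agent.Lib.Helper58.OElm Cfsg.Agent.Lib.Helper12.PHyp Cfsg.Agent.Lib.Helper12.OElmE
open Cfsg.Agent.Lib.Helper13.OElm

universe u

section

variable {F : Type u} [Field F] {k : ℕ}

/-- The embedding maps isometries of the plus form to isometries of the minus form. -/
theorem embHom_mem_iso (a b : F) {y : GL (Fin k ⊕ Fin k) F}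
    (hy : y ∈ Cfsg.isometryGroup F (Cfsg.quadFormPlus k F)) :
    embHom F k y ∈ Cfsg.isometryGroup F (Cfsg.quadFormMinus k F a b) := by
  intro u _
  show Cfsg.quadFormMinus k F a b (((embHom F k y : GL (MI k) F) : Matrix (MI k) (MI k) F) *ᵥ u)
    = Cfsg.quadFormMinus k F a b u
  have hu : u = Sum.elim (u ∘ Sum.inl) (u ∘ Sum.inr) := by
    ext (i | i) <;> rfl
  rw [embHom_mulVec, quadFormMinus_elim]
  conv_rhs => rw [hu, quadFormMinus_elim]
  have h1 : Cfsg.quadFormPlus k F
      ((y : Matrix (Fin k ⊕ Fin k) (Fin k ⊕ Fin k) F) *ᵥ (u ∘ Sum.inl))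
      = Cfsg.quadFormPlus k F (u ∘ Sum.inl) := hy (u ∘ Sum.inl) (u ∘ Sum.inl)
  rw [h1]

/-- The embedding maps `Ω⁺` into `Ω⁻`. -/
theorem embHom_mem_omega (a b : F) {y : GL (Fin k ⊕ Fin k) F}
    (hy : y ∈ Cfsg.Geo.omegaGL (Cfsg.quadFormPlus k F)) :
    embHom F k y ∈ Cfsg.Geo.omegaGL (Cfsg.quadFormMinus k F a b) := by
  obtain ⟨g, hg, rfl⟩ := hy
  have hφ : ∀ g : ↥(Cfsg.isometryGroup F (Cfsg.quadFormPlus k F)),
      ((embHom F k).comp (Cfsg.isometryGroup F (Cfsg.quadFormPlus k F)).subtype) g ∈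
        Cfsg.isometryGroup F (Cfsg.quadFormMinus k F a b) := fun g => embHom_mem_iso a b g.2
  have h1 : (((embHom F k).comp (Cfsg.isometryGroup F (Cfsg.quadFormPlus k F)).subtype).codRestrict
      (Cfsg.isometryGroup F (Cfsg.quadFormMinus k F a b)) hφ) g ∈
      commutator ↥(Cfsg.isometryGroup F (Cfsg.quadFormMinus k F a b)) := by
    have h2 : (((embHom F k).comp
        (Cfsg.isometryGroup F (Cfsg.quadFormPlus k F)).subtype).codRestrict
        (Cfsg.isometryGroup F (Cfsg.quadFormMinus k F a b)) hφ) g ∈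
        (commutator ↥(Cfsg.isometryGroup F (Cfsg.quadFormPlus k F))).map
          (((embHom F k).comp (Cfsg.isometryGroup F (Cfsg.quadFormPlus k F)).subtype).codRestrict
            (Cfsg.isometryGroup F (Cfsg.quadFormMinus k F a b)) hφ) :=
      Subgroup.mem_map_of_mem _ hg
    rw [commutator_def, Subgroup.map_commutator] at h2
    rw [commutator_def]
    exact Subgroup.commutator_mono le_top le_top h2
  exact ⟨_, h1, rfl⟩

end

/-- [NECELTM] -/
theorem pkgNecEltM : PkgNecEltM.{u} := by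
  intro F _ _ h2 k a b hab hk hev
  classical
  obtain ⟨y, hyΩ, hy2, hy1, hyA, hyfix⟩ :=
    Cfsg.Agent.Lib.Helper29.PHyp.pkgNecElt F h2 k hk hev
  have hyiso : ∀ p, Cfsg.quadFormPlus k F
      ((y : Matrix (Fin k ⊕ Fin k) (Fin k ⊕ Fin k) F) *ᵥ p) = Cfsg.quadFormPlus k F p := by
    obtain ⟨g, -, hg⟩ := hyΩ
    intro p
    rw [← hg]
    exact g.2 p p
  have hxΩ := embHom_mem_omega a b hyΩ
  have hxiso : ∀ v, Cfsg.quadFormMinus k F a b
      (((embHom F k y : GL (MI k) F) : Matrix (MI k) (MI k) F) *ᵥ v) =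
      Cfsg.quadFormMinus k F a b v := by
    obtain ⟨g, -, hg⟩ := hxΩ
    intro v
    rw [← hg]
    exact g.2 v v
  have hdec : ∀ v : MI k → F, v = Sum.elim (v ∘ Sum.inl) (v ∘ Sum.inr) := by
    intro v
    ext (i | i) <;> rfl
  have htwo : ∀ c : F, c + c = 0 := by
    intro c
    rw [← two_mul, h2, zero_mul]
  -- fixed vectors of `y` are singular, hence pairwise orthogonal
  have hfixpol : ∀ p p' : Fin k ⊕ Fin k → F,
      (y : Matrix (Fin k ⊕ Fin k) (Fin k ⊕ Fin k) F) *ᵥ p = p →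
      (y : Matrix (Fin k ⊕ Fin k) (Fin k ⊕ Fin k) F) *ᵥ p' = p' →
      Cfsg.quadFormPlus k F (p + p') = 0 ∧ Cfsg.quadFormPlus k F p = 0 ∧
        Cfsg.quadFormPlus k F p' = 0 := by
    intro p p' hp hp'
    refine ⟨hyfix _ ?_, hyfix _ hp, hyfix _ hp'⟩
    rw [Matrix.mulVec_add, hp, hp']
  refine ⟨embHom F k y, hxΩ, ?_, ?_, ?_, ?_⟩
  · -- x * x = 1
    have hyy : y * y = 1 := Units.ext hy2
    rw [← Units.val_mul, ← map_mul, hyy, map_one, Units.val_one]
  · -- x ≠ 1
    intro h1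
    apply hy1
    apply embHom_injective (F := F) (k := k)
    rw [h1, map_one]
  · -- a-type
    intro v _
    unfold QuadraticMap.polar
    have hxv := embHom_mulVec (F := F) y v
    have hsum : v + ((embHom F k y : GL (MI k) F) : Matrix (MI k) (MI k) F) *ᵥ v
        = Sum.elim (v ∘ Sum.inl + (y : Matrix (Fin k ⊕ Fin k) (Fin k ⊕ Fin k) F) *ᵥ (v ∘ Sum.inl))
          (0 : Fin 2 → F) := by
      rw [hxv]
      ext (i | i)
      · rfl
      · show v (Sum.inr i) + v (Sum.inr i) = 0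
        exact htwo _
    have hA := hyA (v ∘ Sum.inl) Submodule.mem_top
    unfold QuadraticMap.polar at hA
    rw [hyiso] at hA
    have hQp : Cfsg.quadFormPlus k F
        (v ∘ Sum.inl + (y : Matrix (Fin k ⊕ Fin k) (Fin k ⊕ Fin k) F) *ᵥ (v ∘ Sum.inl)) = 0 := by
      have h3 := htwo (Cfsg.quadFormPlus k F (v ∘ Sum.inl))
      linear_combination hA + h3
    rw [hxiso, hsum, quadFormMinus_elim, hQp]
    have h4 := htwo (Cfsg.quadFormMinus k F a b v)
    simp only [Pi.zero_apply]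
    linear_combination -h4
  · -- nondegenerate subspaces of the fixed space
    intro W' hW' hNd
    have hfixy : ∀ u : MI k → F,
        u ∈ fixSp ((embHom F k y : GL (MI k) F) : Matrix (MI k) (MI k) F) →
        (y : Matrix (Fin k ⊕ Fin k) (Fin k ⊕ Fin k) F) *ᵥ (u ∘ Sum.inl) = u ∘ Sum.inl := by
      intro u hu
      rw [fixSp_mem, embHom_mulVec] at hu
      have h1 := congrArg (fun f : MI k → F => f ∘ Sum.inl) hu
      exact h1
    have hinj : Function.Injective
        ((LinearMap.funLeft F F (Sum.inr : Fin 2 → MI k)).comp W'.subtype) := by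
      rw [← LinearMap.ker_eq_bot, Submodule.eq_bot_iff]
      intro w hw
      by_contra hw0
      have hwz : (w : MI k → F) ∘ Sum.inr = 0 := LinearMap.mem_ker.1 hw
      have hw0' : (w : MI k → F) ≠ 0 := fun h => hw0 (Subtype.ext h)
      obtain ⟨⟨u, huW, hu⟩, -⟩ := hNd (w : MI k → F) w.2 hw0'
      apply hu
      have hpu := hfixy u (hW' huW)
      have hpw := hfixy (w : MI k → F) (hW' w.2)
      obtain ⟨h1, h2', h3⟩ := hfixpol _ _ hpu hpw
      unfold QuadraticMap.polar
      have hw0i : (w : MI k → F) (Sum.inr 0) = 0 := congrFun hwz 0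
      have hw1i : (w : MI k → F) (Sum.inr 1) = 0 := congrFun hwz 1
      have hQu : Cfsg.quadFormMinus k F a b u = Cfsg.quadFormPlus k F (u ∘ Sum.inl) +
          (u (Sum.inr 0) ^ 2 + a * u (Sum.inr 0) * u (Sum.inr 1) + b * u (Sum.inr 1) ^ 2) := rfl
      have hQw : Cfsg.quadFormMinus k F a b (w : MI k → F) =
          Cfsg.quadFormPlus k F ((w : MI k → F) ∘ Sum.inl) +
          ((w : MI k → F) (Sum.inr 0) ^ 2 + a * (w : MI k → F) (Sum.inr 0) *
            (w : MI k → F) (Sum.inr 1) + b * (w : MI k → F) (Sum.inr 1) ^ 2) := rfl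
      have hQuw : Cfsg.quadFormMinus k F a b (u + (w : MI k → F)) =
          Cfsg.quadFormPlus k F (u ∘ Sum.inl + (w : MI k → F) ∘ Sum.inl) +
          ((u (Sum.inr 0) + (w : MI k → F) (Sum.inr 0)) ^ 2 +
            a * (u (Sum.inr 0) + (w : MI k → F) (Sum.inr 0)) *
              (u (Sum.inr 1) + (w : MI k → F) (Sum.inr 1)) +
            b * (u (Sum.inr 1) + (w : MI k → F) (Sum.inr 1)) ^ 2) := rfl
      rw [hQu, hQw, hQuw, h1, h2', h3, hw0i, hw1i]
      ring
    have h5 := LinearMap.finrank_le_finrank_of_injective hinj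
    have h6 : Module.finrank F (Fin 2 → F) = 2 := by simp
    rw [h6] at h5
    exact h5

end Cfsg.Agent.Lib.Helper83.OElmE
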